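import Cfsg.Agent.SmallDim.Fr.Sup
import Cfsg.Agent.SmallDim.Fr.F
import Cfsg.Agent.GeoMax.OGL

/-!
# From one light unipotent element to the full commutator subgroup, at least seven coordinates
-/

set_option autoImplicit false
set_option linter.unusedSectionVars false
set_option linter.unusedVariables false

namespace Cfsg.Agent.H30.Fr7

open QuadraticMap Module Cfsg.Agent.Orth Cfsg.Agent.GeoMax.Ort Cfsg.Agent.SmallDim.Fr
open Matrix

variable {F : Type*} [Field F] {ι : Type} [Fintype ι] [DecidableEq ι]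

/-- spreading: if `E(u, x) ∈ M` for one non-zero `x` supported on `P`, `u` supported off `P`, then for all -/
theorem spread [Fintype F] (hp : (Fintype.card F).Prime) {M : Subgroup (OGrp (Q0 F ι))} (hM : Base M)
    {P : Finset ι} (hP : 3 ≤ P.card) {u : ι → F} (hu : ∀ i ∈ P, u i = 0) {x : ι → F} (hx : ∀ i, i ∉ P → x i = 0)
    (hx0 : x ≠ 0) (h : HasE M u x) {y : ι → F} (hy : ∀ i, i ∉ P → y i = 0) : HasE M u y := by
  have h2 := hM.two
  -- sign changes
  have hs : ∀ i ∈ P, ∀ j ∈ P, i ≠ j → ∀ z : ι → F, HasE M u z → HasE M u ((2 * z i) • e i + (2 * z j) • e j) := by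
    intro i hi j hj hij z hz
    have h1 := hz.conj (hM.ee i j)
    have e1 : (rf (e i) * rf (e j) : OGrp (Q0 F ι)) u = u := by
      rw [mul_ap, rf_e_of_zero (hu j hj), rf_e_of_zero (hu i hi)]
    have e2 : (rf (e i) * rf (e j) : OGrp (Q0 F ι)) z = z - (2 * z i) • e i - (2 * z j) • e j := by
      rw [mul_ap, rf_ap1 (e_dot_e_self j), dot_e, rf_ap1 (e_dot_e_self i), dot_e]
      simp only [Pi.sub_apply, Pi.smul_apply, smul_eq_mul, e, Pi.single_eq_of_ne hij, mul_zero, sub_zero]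
      abel
    have h3 : HasE M ((rf (e i) * rf (e j) : OGrp (Q0 F ι)) u) ((rf (e i) * rf (e j) : OGrp (Q0 F ι)) z) := h1
    rw [e1, e2] at h3
    have h4 := hz.sub h3
    have e3 : z - (z - (2 * z i) • e i - (2 * z j) • e j) = (2 * z i) • e i + (2 * z j) • e j := by abel
    rwa [e3] at h4
  obtain ⟨i, hi⟩ : ∃ i, x i ≠ 0 := by
    by_contra hcon
    push Not at hcon
    exact hx0 (funext hcon)
  have hiP : i ∈ P := by
    by_contra h; exact hi (hx i h)
  obtain ⟨j, hj, hij⟩ : ∃ j ∈ P, j ≠ i := by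
    obtain ⟨j, hj, hne⟩ := Finset.exists_mem_ne (by omega : 1 < P.card) i
    exact ⟨j, hj, hne⟩
  obtain ⟨k, hk, hki, hkj⟩ : ∃ k ∈ P, k ≠ i ∧ k ≠ j := by
    have h1 : 0 < ((P.erase i).erase j).card := by
      rw [Finset.card_erase_of_mem (Finset.mem_erase.2 ⟨hij, hj⟩), Finset.card_erase_of_mem hiP]; omega
    obtain ⟨k, hk⟩ := Finset.card_pos.1 h1
    rw [Finset.mem_erase, Finset.mem_erase] at hk
    exact ⟨k, hk.2.2, hk.2.1, hk.1⟩
  have h3 := hs i hiP j hj hij.symm x h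
  have h4 := hs i hiP k hk hki.symm _ h3
  -- a multiple of `e i`
  have e1 : ((2 * x i) • e i + (2 * x j) • e j : ι → F) i = 2 * x i := by
    simp [e, Pi.single_eq_of_ne hij.symm]
  have e2 : ((2 * x i) • e i + (2 * x j) • e j : ι → F) k = 0 := by
    simp [e, Pi.single_eq_of_ne hkj, Pi.single_eq_of_ne hki]
  rw [e1, e2, mul_zero, zero_smul, add_zero] at h4
  have h5 : HasE M u (e i) := by
    have h6 := ffSmul hp h4 (2 * (2 * x i))⁻¹
    rwa [smul_smul, inv_mul_cancel₀ (mul_ne_zero h2 (mul_ne_zero h2 hi)), one_smul] at h6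
  -- three-cycles
  have h6 : ∀ b ∈ P, HasE M u (e b) := by
    intro b hb
    by_cases hib : i = b
    · rw [← hib]; exact h5
    obtain ⟨c, hc, hci, hcb⟩ : ∃ c ∈ P, c ≠ i ∧ c ≠ b := by
      have h1 : 0 < ((P.erase i).erase b).card := by
        rw [Finset.card_erase_of_mem (Finset.mem_erase.2 ⟨Ne.symm hib, hb⟩), Finset.card_erase_of_mem hiP]; omega
      obtain ⟨k, hk⟩ := Finset.card_pos.1 h1
      rw [Finset.mem_erase, Finset.mem_erase] at hk
      exact ⟨k, hk.2.2, hk.2.1, hk.1⟩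
    have h7 := h5.conj (hM.cyc_mem hib (Ne.symm hcb))
    have e3 : (cyc i b c : OGrp (Q0 F ι)) u = u := cyc_of_zero h2 hib (Ne.symm hcb) (hu i hiP) (hu b hb) (hu c hc)
    have e4 : (cyc i b c : OGrp (Q0 F ι)) (e i) = e b := cyc_i h2 hib (Ne.symm hci) (Ne.symm hcb)
    have h8 : HasE M ((cyc i b c : OGrp (Q0 F ι)) u) ((cyc i b c : OGrp (Q0 F ι)) (e i)) := h7
    rwa [e3, e4] at h8
  have h7 : y = ∑ i, y i • (e i : ι → F) := by
    funext k
    rw [Finset.sum_apply, Finset.sum_eq_single k]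
    · simp [e]
    · intro i _ hik
      simp [e, Pi.single_eq_of_ne hik.symm]
    · intro h; exact absurd (Finset.mem_univ k) h
  rw [h7]
  refine ffSum h.sing _ _ fun i _ => ?_
  by_cases hi : i ∈ P
  · exact ffSmul hp (h6 i hi) _
  · rw [hy i hi, zero_smul]; exact HasE.zero h.sing

/-- a singular vector supported on a given set of at least three coordinates -/
theorem exists_sing_supp [Fintype F] (h2 : (2 : F) ≠ 0) {P : Finset ι} (hP : 3 ≤ P.card) :
    ∃ y : ι → F, y ≠ 0 ∧ y ⬝ᵥ y = 0 ∧ ∀ i, i ∉ P → y i = 0 := by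
  have hnd := nondeg (F := F) (ι := ι) h2
  set W : Submodule F (ι → F) := Submodule.span F (Set.range fun i : (Pᶜ : Finset ι) => (e (i : ι) : ι → F)) with hW
  have h1 := finrank_perp hnd W
  have h3 : finrank F W ≤ (Pᶜ : Finset ι).card := by
    have := finrank_range_le_card (R := F) (fun i : (Pᶜ : Finset ι) => (e (i : ι) : ι → F))
    rwa [Fintype.card_coe] at this
  rw [Finset.card_compl] at h3
  rw [Module.finrank_fintype_fun_eq_card] at h1
  have h4 := Finset.card_le_univ P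
  obtain ⟨y, hy, hy0, hyq⟩ := exists_sing_mem (Q0 F ι) (perp (Q0 F ι) W) (by omega)
  refine ⟨y, hy0, by rw [← Q0_apply]; exact hyq, fun i hi => ?_⟩
  have h5 : polar (Q0 F ι) (e i) y = 0 := hy _ (Submodule.subset_span ⟨⟨i, Finset.mem_compl.2 hi⟩, rfl⟩)
  rw [polar_Q0, e_dot] at h5
  exact (mul_eq_zero.1 h5).resolve_left h2

theorem dot_supp {S : Finset ι} {u v : ι → F} (hu : ∀ i, i ∉ S → u i = 0) (hv : ∀ i ∈ S, v i = 0) : u ⬝ᵥ v = 0 := by
  simp only [dotProduct]
  refine Finset.sum_eq_zero fun i _ => ?_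
  by_cases hi : i ∈ S
  · rw [hv i hi, mul_zero]
  · rw [hu i hi, zero_mul]

/-- (F') -/
theorem full_of_light7 [Fintype F] (hp : (Fintype.card F).Prime) (hn : 7 ≤ Fintype.card ι)
    {M : Subgroup (OGrp (Q0 F ι))} (hM : Base M) (hL : Light M) : commutator (OGrp (Q0 F ι)) ≤ M := by
  have h2 := hM.two
  obtain ⟨a, X, d, haX, hX, hd, hd0, hdd, hmem⟩ := hL
  have hda : d a = 0 := hd a haX
  have h1 : HasE M (-d) (e a) := by
    have hs : Q0 F ι (-d) = 0 := by rw [Q0_apply, neg_dotProduct_neg, hdd]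
    have ho : polar (Q0 F ι) (-d) (e a) = 0 := by rw [polar_Q0, dot_e, Pi.neg_apply, hda]; simp
    refine ⟨hs, ho, ?_⟩
    have hq : Q0 F ι (e a) = 1 := by rw [Q0_apply, e_dot_e_self]
    have he : (e a : ι → F) - Q0 F ι (e a) • (-d) = e a + d := by rw [hq, one_smul, sub_neg_eq_add]
    have hq' : Q0 F ι (e a + d) = 1 := by
      rw [Q0_apply, add_dotProduct, dotProduct_add, dotProduct_add, e_dot_e_self, e_dot, dot_e, hda, hdd]
      simp
    rw [eich_eq_refl_mul hs ho (by rw [hq]; exact one_ne_zero) (by rw [he, hq']; exact one_ne_zero)]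
    have e1 : rf (e a : ι → F) = refl (Q0 F ι) (e a) (by rw [hq]; exact one_ne_zero) := rf_eq _
    have e2 : rf (e a + d : ι → F) = refl (Q0 F ι) (e a - Q0 F ι (e a) • (-d)) (by rw [he, hq']; exact one_ne_zero) := by
      rw [← rf_eq, he]
    rw [← e1, ← e2]
    exact hmem
  -- a four-set `S` containing the support
  obtain ⟨S, hXS, hSa, hS4⟩ := Finset.exists_subsuperset_card_eq
    (show X ⊆ Finset.univ.erase a from fun i hi => Finset.mem_erase.2 ⟨fun h => haX (h ▸ hi), Finset.mem_univ i⟩) hX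
    (by rw [Finset.card_erase_of_mem (Finset.mem_univ a), Finset.card_univ]; omega)
  have haS : a ∉ S := fun h => (Finset.mem_erase.1 (hSa h)).1 rfl
  set T : Finset ι := Sᶜ with hT
  have hT3 : 3 ≤ T.card := by rw [hT, Finset.card_compl]; omega
  have hST : ∀ i, i ∈ T ↔ i ∉ S := fun i => Finset.mem_compl
  have hdS : ∀ i, i ∉ S → (-d) i = 0 := fun i hi => by
    rw [Pi.neg_apply, hd i (fun h => hi (hXS h)), neg_zero]
  have hTn : ∀ v : ι → F, (∀ i, i ∉ T → v i = 0) → ∀ i ∈ S, v i = 0 := fun v hv i hi =>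
    hv i (fun h => (hST i).1 h hi)
  have hSn : ∀ v : ι → F, (∀ i, i ∉ S → v i = 0) → ∀ i ∈ T, v i = 0 := fun v hv i hi => hv i ((hST i).1 hi)
  -- step 1
  have B1 : ∀ y : ι → F, (∀ i, i ∉ T → y i = 0) → HasE M (-d) y := fun y hy =>
    spread hp hM hT3 (hSn _ hdS) (x := e a) (fun i hi => Pi.single_eq_of_ne
      (fun h : i = a => hi (by rw [h]; exact (hST a).2 haS)) _) (e_ne_zero a) h1 hy
  -- step 2
  have B2 : ∀ y : ι → F, (∀ i, i ∉ T → y i = 0) → y ⬝ᵥ y = 0 → ∀ z : ι → F, (∀ i, i ∉ S → z i = 0) → HasE M y z := by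
    intro y hy hyy z hz
    exact spread hp hM (by omega) (hTn y hy) (x := -d) hdS (neg_ne_zero.2 hd0)
      ((B1 y hy).symm (by rw [Q0_apply, hyy])) hz
  obtain ⟨y, hy0, hyy, hyT⟩ := exists_sing_supp (F := F) h2 hT3
  -- step 3
  have B3 : ∀ z : ι → F, (∀ i, i ∉ S → z i = 0) → z ⬝ᵥ z = 0 → ∀ y' : ι → F, (∀ i, i ∉ T → y' i = 0) →
      HasE M z y' := by
    intro z hz hzz y' hy'
    exact spread hp hM hT3 (hSn z hz) (x := y) hyT hy0 ((B2 y hyT hyy z hz).symm (by rw [Q0_apply, hzz])) hy'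
  -- step 4
  obtain ⟨m, hm⟩ : ∃ m, y m ≠ 0 := by
    by_contra hcon
    push Not at hcon
    exact hy0 (funext hcon)
  have hmT : m ∈ T := by
    by_contra h; exact hm (hyT m h)
  have hemT : ∀ i, i ∉ T → (e m : ι → F) i = 0 := fun i hi =>
    Pi.single_eq_of_ne (fun h : i = m => hi (by rw [h]; exact hmT)) _
  have B4 : ∀ z : ι → F, (∀ i, i ∉ S → z i = 0) → z ⬝ᵥ z = 0 → ∀ b : ι → F, (∀ i, i ∉ S → b i = 0) → z ⬝ᵥ b = 0 →
      HasE M z b := by
    intro z hz hzz b hb hzb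
    obtain ⟨hq, ho, hE⟩ := B2 y hyT hyy b hb
    have hzy : z ⬝ᵥ y = 0 := dot_supp hz (hTn y hyT)
    have hmb : (e m : ι → F) ⬝ᵥ b = 0 := by rw [e_dot]; exact hSn b hb m hmT
    have h3 := (B3 z hz hzz (e m) hemT).conj hE
    have e1 : (eich (Q0 F ι) y b hq ho : (ι → F) ≃ₗ[F] (ι → F)) z = z := by
      rw [eich_apply, polar_Q0, polar_Q0, hzb, hzy]; simp
    have e2 : (eich (Q0 F ι) y b hq ho : (ι → F) ≃ₗ[F] (ι → F)) (e m) =
        e m - (2 * y m) • b - (Q0 F ι b * (2 * y m)) • y := by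
      rw [eich_apply, polar_Q0, polar_Q0, hmb, e_dot]; simp
    rw [e1, e2] at h3
    have h4 := (B3 z hz hzz (e m) hemT).sub h3
    have h5 := h4.sub (B3 z hz hzz ((Q0 F ι b * (2 * y m)) • y) (fun i hi => by
      rw [Pi.smul_apply, hyT i hi, smul_zero]))
    have e3 : e m - (e m - (2 * y m) • b - (Q0 F ι b * (2 * y m)) • y) - (Q0 F ι b * (2 * y m)) • y =
        (2 * y m) • b := by abel
    rw [e3] at h5
    have h6 := ffSmul hp h5 (2 * y m)⁻¹
    rwa [smul_smul, inv_mul_cancel₀ (mul_ne_zero h2 hm), one_smul] at h6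
  -- step 5
  have B5 : ∀ z : ι → F, (∀ i, i ∉ S → z i = 0) → z ⬝ᵥ z = 0 → FullR M z := by
    intro z hz hzz b hb
    rw [polar_Q0] at hb
    have hb' : z ⬝ᵥ b = 0 := (mul_eq_zero.1 hb).resolve_left h2
    classical
    set b1 : ι → F := fun i => if i ∈ S then b i else 0 with hb1
    set b2 : ι → F := fun i => if i ∈ S then 0 else b i with hb2
    have hsplit : b = b1 + b2 := by
      funext i
      simp only [hb1, hb2, Pi.add_apply]
      split_ifs <;> simp
    have hb1S : ∀ i, i ∉ S → b1 i = 0 := fun i hi => by simp only [hb1, if_neg hi]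
    have hb2S : ∀ i ∈ S, b2 i = 0 := fun i hi => by simp only [hb2, if_pos hi]
    have hz1 : z ⬝ᵥ b1 = 0 := by
      rw [hsplit, dotProduct_add, dot_supp hz hb2S, add_zero] at hb'
      exact hb'
    rw [hsplit]
    refine (B4 z hz hzz b1 hb1S hz1).add (B3 z hz hzz b2 fun i hi => hb2S i ?_)
    by_contra h
    exact hi ((hST i).2 h)
  -- step 6
  obtain ⟨z, hz0, hzz, hzS⟩ := exists_sing_supp (F := F) (P := S) h2 (by omega)
  have hFz := B5 z hzS hzz
  obtain ⟨i, hi⟩ : ∃ i, z i ≠ 0 := by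
    by_contra hcon
    push Not at hcon
    exact hz0 (funext hcon)
  have hza : z a = 0 := hzS a haS
  have hFz' := hFz.conj (hM.ee i a)
  have e1 : ((rf (e i) * rf (e a) : OGrp (Q0 F ι)) : (ι → F) ≃ₗ[F] (ι → F)) z = z - (2 * z i) • e i := by
    change (rf (e i) * rf (e a) : OGrp (Q0 F ι)) z = _
    rw [mul_ap, rf_e_of_zero hza, rf_ap1 (e_dot_e_self i), dot_e]
  rw [e1] at hFz'
  refine commutator_le_of_FullR (nondeg h2) (by rw [Module.finrank_fintype_fun_eq_card]; omega) hFz hFz' ?_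
  rw [polar_Q0, sub_dotProduct, smul_dotProduct, hzz, e_dot, smul_eq_mul, zero_sub]
  have : (2 : F) * -(2 * z i * z i) = -(2 * 2 * (z i * z i)) := by ring
  rw [this]
  exact neg_ne_zero.2 (mul_ne_zero (mul_ne_zero h2 h2) (mul_ne_zero hi hi))

end Cfsg.Agent.H30.Fr7
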