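import Cfsg.Agent.H94.ND8b
import Cfsg.Agent.GeoMax.ONDGlue

/-!
Stabilisers of non-degenerate subspaces in `Ω_7` are maximal: `4 + 3`.
-/

set_option autoImplicit false
set_option linter.unusedSectionVars false

namespace Cfsg.Agent.H30.OS7

open QuadraticMap Module Cfsg.Agent.Orth Cfsg.Agent.GeoMax.Ort Cfsg.Agent.GeoMax Cfsg.Agent.H94.SmallOrt
open Cfsg.Agent.H94.ND8

variable {F V : Type*} [Field F] [AddCommGroup V] [Module F V]
variable [Finite F] [FiniteDimensional F V] {Q : QuadraticForm F V}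

/-- From `eich w u`, `w ∈ U^⊥`, `u ∈ U` non-zero, one gets `eich u' w` with `u' ∈ U` singular. -/
theorem mixed_of_mixed (hQ : (polarBilin Q).Nondegenerate) (h2 : (2 : F) ≠ 0) {U : Submodule F V}
    {M : Subgroup (OGrp Q)} (hU : U ⊓ perp Q U = ⊥) (hN : 3 ≤ finrank F U) (hNV : 5 ≤ finrank F V)
    (hHM : stabO Q U ⊓ commutator (OGrp Q) ≤ M)
    {w u : V} (hw : w ∈ perp Q U) (huU : u ∈ U) (hu0 : u ≠ 0) (hwu : HasE M w u) :
    ∃ u' ∈ U, u' ≠ 0 ∧ HasE M u' w := by
  have hwq := hwu.sing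
  obtain ⟨a, haU, haq, hua⟩ := exists_sing_pair hU hN huU hu0
  have ha0 : a ≠ 0 := by rintro rfl; rw [polar_zero_right] at hua; exact hua rfl
  -- a non-singular vector orthogonal to `a`
  obtain ⟨a', ha'U, ha'q, haa'⟩ := exists_hyp hU haU ha0 haq
  obtain ⟨b, hbU, hab, hbq⟩ : ∃ b ∈ U, polar Q a b = 0 ∧ Q b ≠ 0 := by
    by_contra hcon
    push Not at hcon
    have h4 := finrank_inf_perp hQ U (Submodule.span F {a})
    rw [finrank_span_singleton ha0] at h4
    -- all vectors of `U ∩ a^⊥` are singular, hence mutually orthogonal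
    have hsing : ∀ x ∈ U, polar Q a x = 0 → ∀ y ∈ U, polar Q a y = 0 → polar Q x y = 0 := by
      intro x hx hax y hy hay
      have h1 := hcon (x + y) (U.add_mem hx hy) (by rw [par, hax, hay, add_zero])
      rw [qadd, hcon x hx hax, hcon y hy hay, zero_add, zero_add] at h1
      exact h1
    have h5 : U ⊓ perp Q (Submodule.span F {a}) ≤ Submodule.span F {a} := by
      rintro x ⟨hx, hx'⟩
      have hax : polar Q a x = 0 := hx' a (Submodule.mem_span_singleton_self a)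
      refine mem_span_of_perp hQ hU haU hx fun y hy hay => ?_
      exact hsing y hy hay x hx hax
    have h6 := Submodule.finrank_mono h5
    rw [finrank_span_singleton ha0] at h6
    omega
  -- the additive group
  have hconj : ∀ c ∈ U, polar Q a c = 0 → HasE M w (u + polar Q u c • a - polar Q u a • c - (Q c * polar Q u a) • a) := by
    intro c hc hac
    obtain ⟨_, _, hm⟩ := hasE_U hQ hNV hHM haU hc haq hac
    have h1 := hwu.conj hm
    rw [eich_apply, eich_apply, hWU haU hw, hWU hc hw] at h1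
    simpa using h1
  have h1 := hconj b hbU hab
  have h3 := hconj (b + b) (U.add_mem hbU hbU) (by rw [par, hab, add_zero])
  have h4 := ((h3.sub h1).sub h1).add hwu
  have e : u + polar Q u (b + b) • a - polar Q u a • (b + b) - (Q (b + b) * polar Q u a) • a -
      (u + polar Q u b • a - polar Q u a • b - (Q b * polar Q u a) • a) -
      (u + polar Q u b • a - polar Q u a • b - (Q b * polar Q u a) • a) + u = (-(2 * Q b * polar Q u a)) • a := by
    rw [par, qadd, pself]; module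
  rw [e] at h4
  have hc : -(2 * Q b * polar Q u a) ≠ 0 := neg_ne_zero.2 (mul_ne_zero (mul_ne_zero h2 hbq) hua)
  exact ⟨_, U.smul_mem _ haU, smul_ne_zero hc ha0, HasE.symm h4 (by rw [qsmul, haq, mul_zero])⟩

/-- `4 + 3` -/
theorem nd_maximal43 (hQ : (polarBilin Q).Nondegenerate) (h2 : (2 : F) ≠ 0) {U : Submodule F V}
    (hU : U ⊓ perp Q U = ⊥) (hN : finrank F U = 4) (hNW : finrank F (perp Q U) = 3) :
    Cfsg.Geo.IsMaximalIn (commutator (OGrp Q)) (stabO Q U ⊓ commutator (OGrp Q)) := by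
  have hV : finrank F V = 7 := by
    have := finrank_perp hQ U
    omega
  have hW0 : perp Q U ≠ ⊥ := by
    intro h; rw [h, finrank_bot] at hNW; omega
  have hWnd := perp_nd hQ hU
  refine ⟨stab_lt hQ hU (by omega) (by omega) hW0, ?_⟩
  intro M hHM hMI
  by_cases hMH : M = stabO Q U ⊓ commutator (OGrp Q)
  · exact Or.inl hMH
  right
  refine le_antisymm hMI ?_
  obtain ⟨g, hgM, hg⟩ : ∃ g ∈ M, g ∉ stabO Q U := by
    by_contra hcon
    push Not at hcon
    exact hMH (le_antisymm (fun g hg => ⟨hcon g hg, hMI hg⟩) hHM)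
  by_contra hcon
  have hnoU : ∀ u ∈ U, u ≠ 0 → ∀ w ∈ perp Q U, HasE M u w → w = 0 := by
    intro u huU hu0 w hw huw
    by_contra hw0
    exact hcon (le_of_mixed hQ hU (by omega) (by omega) hHM (by omega) huU hu0 hw hw0 huw)
  have hnoW : ∀ w ∈ perp Q U, w ≠ 0 → ∀ u ∈ U, HasE M w u → u = 0 := by
    intro w hw hw0 u huU hwu
    by_contra hu0
    obtain ⟨u', hu'U, hu'0, h⟩ := mixed_of_mixed hQ h2 hU (by omega) (by omega) hHM hw huU hu0 hwu
    exact hw0 (hnoU u' hu'U hu'0 w hw h)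
  have hDU : ∀ z ∈ U, z ≠ 0 → ∀ b, HasE M z b → b ∈ U := by
    intro z hz hz0 b hb
    obtain ⟨bW, hbW, bU, hbU, rfl⟩ := exists_add hQ hU b
    have h1 := hb.ortho
    rw [par, hUW hz hbW, zero_add] at h1
    have h2 := hb.sub (hasE_U hQ (by omega) hHM hz hbU hb.sing h1)
    rw [add_sub_cancel_right] at h2
    rw [hnoU z hz hz0 bW hbW h2, zero_add]
    exact hbU
  have hDW : ∀ z ∈ perp Q U, z ≠ 0 → ∀ b, HasE M z b → b ∈ perp Q U := by
    intro z hz hz0 b hb
    obtain ⟨bW, hbW, bU, hbU, rfl⟩ := exists_add hQ hU b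
    have h1 := hb.ortho
    rw [par, hWU hbU hz, add_zero] at h1
    have h2 := hb.sub (hasE_W hQ (by omega) hHM hz hbW hb.sing h1)
    rw [add_sub_cancel_left] at h2
    rw [hnoW z hz hz0 bU hbU h2, add_zero]
    exact hbW
  have hne0 : ∀ (h : OGrp Q) (z : V), z ≠ 0 → (h : V ≃ₗ[F] V) z ≠ 0 := by
    intro h z hz h0
    exact hz ((LinearEquiv.map_eq_zero_iff _).1 h0)
  have hPUU : ∀ h ∈ M, ∀ z ∈ U, z ≠ 0 → Q z = 0 → (h : V ≃ₗ[F] V) z ∈ U → ∀ b ∈ U, polar Q z b = 0 →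
      (h : V ≃ₗ[F] V) b ∈ U := by
    intro h hh z hz hz0 hzq hhz b hb hzb
    exact hDU _ hhz (hne0 h z hz0) _ ((hasE_U hQ (by omega) hHM hz hb hzq hzb).conj hh)
  have hPUW : ∀ h ∈ M, ∀ z ∈ U, z ≠ 0 → Q z = 0 → (h : V ≃ₗ[F] V) z ∈ perp Q U → ∀ b ∈ U, polar Q z b = 0 →
      (h : V ≃ₗ[F] V) b ∈ perp Q U := by
    intro h hh z hz hz0 hzq hhz b hb hzb
    exact hDW _ hhz (hne0 h z hz0) _ ((hasE_U hQ (by omega) hHM hz hb hzq hzb).conj hh)
  -- (U3)
  have hU3 : ∀ h ∈ M, ∀ z ∈ U, z ≠ 0 → Q z = 0 → (h : V ≃ₗ[F] V) z ∉ perp Q U := by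
    intro h hh z hz hz0 hzq hhz
    have h1 : (U ⊓ perp Q (Submodule.span F {z})).map ((h : V ≃ₗ[F] V) : V →ₗ[F] V) ≤ perp Q U := by
      rintro _ ⟨b, ⟨hb, hb'⟩, rfl⟩
      exact hPUW h hh z hz hz0 hzq hhz b hb (hb' z (Submodule.mem_span_singleton_self z))
    have h3 := finrank_inf_perp hQ U (Submodule.span F {z})
    rw [finrank_span_singleton hz0] at h3
    have h4 := Submodule.finrank_mono h1
    rw [LinearEquiv.finrank_map_eq] at h4
    have h5 := Submodule.eq_of_le_of_finrank_le h1 (by rw [LinearEquiv.finrank_map_eq]; omega)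
    have h6 : (h : V ≃ₗ[F] V) z ∈ perp Q U ⊓ perp Q (perp Q U) := by
      refine ⟨hhz, ?_⟩
      intro y hy
      change polar Q y _ = 0
      rw [← h5] at hy
      obtain ⟨b, ⟨hb, hb'⟩, rfl⟩ := hy
      change polar Q ((h : V ≃ₗ[F] V) b) ((h : V ≃ₗ[F] V) z) = 0
      rw [OGrp_polar, pc]
      exact hb' z (Submodule.mem_span_singleton_self z)
    rw [hWnd] at h6
    exact hne0 h z hz0 ((Submodule.mem_bot F).1 h6)
  -- (U1)
  have hU1 : ∀ h ∈ M, ∀ z ∈ U, z ≠ 0 → Q z = 0 → (h : V ≃ₗ[F] V) z ∈ U → h ∈ stabO Q U := by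
    intro h hh z hz hz0 hzq hhz
    obtain ⟨z', hz'U, hz'q, hzz'⟩ := exists_hyp hU hz hz0 hzq
    obtain ⟨w, hw, u, hu, hwu⟩ := exists_add hQ hU ((h : V ≃ₗ[F] V) z')
    set y := (h : V ≃ₗ[F] V) z with hy
    have hyq : Q y = 0 := by rw [hy, OGrp_q, hzq]
    have hsplit : ∀ x : V, x = (x - polar Q x z • z') + polar Q x z • z' := fun x => by module
    have hp : ∀ x ∈ U, polar Q z (x - polar Q x z • z') = 0 := by
      intro x _
      rw [pdr, psr, hzz', pc Q z x]; ring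
    have hpU : ∀ x ∈ U, (h : V ≃ₗ[F] V) (x - polar Q x z • z') ∈ U := by
      intro x hx
      exact hPUU h hh z hz hz0 hzq hhz _ (U.sub_mem hx (U.smul_mem _ hz'U)) (hp x hx)
    have hyu : polar Q y u = 1 := by
      have h1 : polar Q y ((h : V ≃ₗ[F] V) z') = 1 := by rw [hy, OGrp_polar, hzz']
      rwa [hwu, par, hUW hhz hw, zero_add] at h1
    have hqu : Q u = - Q w := by
      have h1 : Q ((h : V ≃ₗ[F] V) z') = 0 := by rw [OGrp_q, hz'q]
      rw [hwu, qadd, hWU hu hw, add_zero] at h1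
      linear_combination h1
    -- the Eichler element
    have hyw : polar Q y (-w) = 0 := by rw [polar_neg_right, hUW hhz hw, neg_zero]
    set E := eich Q y (-w) hyq hyw with hE
    have hEfix : ∀ x ∈ U, polar Q x y = 0 → (E : V ≃ₗ[F] V) x = x := by
      intro x hx hxy
      rw [hE, eich_apply, polar_neg_right, hUW hx hw, hxy]; simp
    have hEy' : (E : V ≃ₗ[F] V) (u + Q w • y) = (h : V ≃ₗ[F] V) z' := by
      have e1 : polar Q (u + Q w • y) w = 0 := hUW (U.add_mem hu (U.smul_mem _ hhz)) hw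
      have e2 : polar Q (u + Q w • y) y = 1 := by
        rw [pal, psl, pself, hyq, pc Q u y, hyu]; ring
      have e3 : Q (-w) = Q w := QuadraticMap.map_neg Q w
      rw [hE, eich_apply, polar_neg_right, e1, e2, e3, hwu]
      module
    have hEinv : ∀ x v, (E : V ≃ₗ[F] V) x = v → ((E⁻¹ : OGrp Q) : V ≃ₗ[F] V) v = x := by
      rintro x v rfl
      exact coe_inv_apply_self E x
    have hk : E⁻¹ * h ∈ stabO Q U := by
      refine mem_stabO_of_le fun x hx => ?_
      rw [hsplit x, map_add, coe_mul_apply, coe_mul_apply]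
      refine U.add_mem ?_ ?_
      · rw [hEinv _ _ (hEfix _ (hpU x hx) ?_)]
        · exact hpU x hx
        · rw [pc, hy, OGrp_polar]; exact hp x hx
      · rw [map_smul, map_smul, hEinv _ _ hEy']
        exact U.smul_mem _ (U.add_mem hu (U.smul_mem _ hhz))
    have hkM : E⁻¹ * h ∈ M := by
      refine hHM ⟨hk, ?_⟩
      exact Subgroup.mul_mem _ (Subgroup.inv_mem _ (eich_mem_commutator5 hQ (by omega) _ _)) (hMI hh)
    have hEM : E ∈ M := by
      have h1 := M.mul_mem hh (M.inv_mem hkM)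
      have h3 : h * (E⁻¹ * h)⁻¹ = E := by group
      rwa [h3] at h1
    have hw0 := hnoU y hhz (hne0 h z hz0) (-w) (Submodule.neg_mem _ hw) ⟨hyq, hyw, hEM⟩
    rw [neg_eq_zero] at hw0
    refine mem_stabO_of_le fun x hx => ?_
    rw [hsplit x, map_add]
    refine U.add_mem (hpU x hx) ?_
    rw [map_smul, hwu, hw0, zero_add]
    exact U.smul_mem _ hu
  -- the two images
  set Z := (perp Q U).map ((g : V ≃ₗ[F] V) : V →ₗ[F] V) with hZ
  set Z' := U.map ((g : V ≃ₗ[F] V) : V →ₗ[F] V) with hZ'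
  have hZ'fin : finrank F Z' = 4 := (LinearEquiv.finrank_map_eq _ _).trans hN
  have hZperp : perp Q Z = Z' := by rw [hZ, map_perp hQ, perp_perp hQ]
  have hZ'perp : perp Q Z' = Z := by rw [hZ', map_perp hQ]
  have hZmem : ∀ x, x ∈ Z ↔ ((g⁻¹ : OGrp Q) : V ≃ₗ[F] V) x ∈ perp Q U := by
    intro x
    constructor
    · rintro ⟨y, hy, rfl⟩
      have : ((g⁻¹ : OGrp Q) : V ≃ₗ[F] V) (((g : V ≃ₗ[F] V) : V →ₗ[F] V) y) = y := coe_inv_apply_self g y
      rw [this]; exact hy
    · intro h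
      exact ⟨_, h, coe_apply_inv_self g x⟩
  have hZ'mem : ∀ x, x ∈ Z' ↔ ((g⁻¹ : OGrp Q) : V ≃ₗ[F] V) x ∈ U := by
    intro x
    constructor
    · rintro ⟨y, hy, rfl⟩
      have : ((g⁻¹ : OGrp Q) : V ≃ₗ[F] V) (((g : V ≃ₗ[F] V) : V →ₗ[F] V) y) = y := coe_inv_apply_self g y
      rw [this]; exact hy
    · intro h
      exact ⟨_, h, coe_apply_inv_self g x⟩
  have hnZ' : ∀ u ∈ U, u ≠ 0 → Q u = 0 → u ∉ Z' := by
    intro u hu hu0 huq h
    apply hg
    have h1 := hU1 g⁻¹ (M.inv_mem hgM) u hu hu0 huq ((hZ'mem u).1 h)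
    have h3 := (stabO Q U).inv_mem h1
    rwa [inv_inv] at h3
  have hnZ : ∀ u ∈ U, u ≠ 0 → Q u = 0 → u ∉ Z := by
    intro u hu hu0 huq h
    exact hU3 g⁻¹ (M.inv_mem hgM) u hu hu0 huq ((hZmem u).1 h)
  obtain ⟨u, hu, hu0, huq⟩ := exists_sing_mem Q U (by omega)
  obtain ⟨z, ⟨hzZ, hzu⟩, hz0, hzq⟩ : ∃ z ∈ Z' ⊓ perp Q (Submodule.span F {u}), z ≠ 0 ∧ Q z = 0 := by
    apply exists_sing_mem
    have h2 := finrank_inf_perp hQ Z' (Submodule.span F {u})
    rw [finrank_span_singleton hu0] at h2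
    omega
  have huz : polar Q u z = 0 := hzu u (Submodule.mem_span_singleton_self u)
  obtain ⟨b, hbU, hub, hzb, hbs⟩ : ∃ b ∈ U, polar Q u b = 0 ∧ polar Q z b = 0 ∧ b ∉ Submodule.span F {u} := by
    have h4 := finrank_inf_perp hQ U (Submodule.span F {x | x ∈ [u, z]})
    have h2 := Symp.finrank_span_list_le (K := F) [u, z]
    simp only [List.length_cons, List.length_nil] at h2
    by_contra hc
    push Not at hc
    have h5 : U ⊓ perp Q (Submodule.span F {x | x ∈ [u, z]}) ≤ Submodule.span F {u} := by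
      rintro b ⟨hb, hb'⟩
      have h6 := mem_perp_list.1 hb'
      exact hc b hb (by rw [pc]; exact h6 u (by simp)) (by rw [pc]; exact h6 z (by simp))
    have h6 := Submodule.finrank_mono h5
    rw [finrank_span_singleton hu0] at h6
    omega
  obtain ⟨_, _, ht⟩ := hasE_U hQ (by omega) hHM hu hbU huq hub
  set t := eich Q u b huq hub with htdef
  have htz : (t : V ≃ₗ[F] V) z = z := by
    rw [htdef, eich_apply, hzb, pc Q z u, huz]; simp
  have hts : g⁻¹ * t * g ∈ stabO Q U := by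
    have h1 : g⁻¹ * t * g ∈ M := M.mul_mem (M.mul_mem (M.inv_mem hgM) ht) hgM
    have h2 : ((g⁻¹ * t * g : OGrp Q) : V ≃ₗ[F] V) (((g⁻¹ : OGrp Q) : V ≃ₗ[F] V) z) =
        ((g⁻¹ : OGrp Q) : V ≃ₗ[F] V) z := by
      rw [coe_mul_apply, coe_mul_apply, coe_apply_inv_self, htz]
    exact hU1 _ h1 (((g⁻¹ : OGrp Q) : V ≃ₗ[F] V) z) ((hZ'mem z).1 hzZ) (hne0 _ z hz0) (by rw [OGrp_q, hzq])
      (by rw [h2]; exact (hZ'mem z).1 hzZ)
  have htZ' : ∀ x ∈ Z', (t : V ≃ₗ[F] V) x ∈ Z' := by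
    intro x hx
    rw [hZ'mem] at hx ⊢
    have h4 := (mem_stabO.1 hts _).1 hx
    rwa [coe_mul_apply, coe_mul_apply, coe_apply_inv_self] at h4
  have htZ : ∀ x ∈ Z, (t : V ≃ₗ[F] V) x ∈ Z := by
    have hts' := hts
    rw [← stabO_perp hQ] at hts'
    intro x hx
    rw [hZmem] at hx ⊢
    have h4 := (mem_stabO.1 hts' _).1 hx
    rwa [coe_mul_apply, coe_mul_apply, coe_apply_inv_self] at h4
  -- from a subspace `S` stable under `t` not orthogonal to `u`
  have key : ∀ S : Submodule F V, (∀ x ∈ S, (t : V ≃ₗ[F] V) x ∈ S) → (∃ x ∈ S, polar Q x u ≠ 0) →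
      ∃ k : F, b + k • u ∈ S := by
    rintro S hS ⟨x, hx, hxu⟩
    refine ⟨Q b - polar Q x b / polar Q x u, ?_⟩
    have h1 := S.sub_mem (hS x hx) hx
    rw [htdef, eich_apply] at h1
    have h3 := S.smul_mem (-(polar Q x u))⁻¹ h1
    convert h3 using 1
    have e0 : x + polar Q x b • u - polar Q x u • b - (Q b * polar Q x u) • u - x =
        polar Q x b • u - polar Q x u • b - (Q b * polar Q x u) • u := by module
    rw [e0, smul_sub, smul_sub, smul_smul, smul_smul, smul_smul]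
    have e1 : (-(polar Q x u))⁻¹ * polar Q x u = -1 := by field_simp
    have e2 : (-(polar Q x u))⁻¹ * polar Q x b = - (polar Q x b / polar Q x u) := by field_simp
    have e3 : (-(polar Q x u))⁻¹ * (Q b * polar Q x u) = - Q b := by field_simp
    rw [e1, e2, e3]; module
  obtain ⟨k, hk⟩ := key Z' htZ' (by
    by_contra hc
    push Not at hc
    apply hnZ u hu hu0 huq
    rw [← hZ'perp]; exact hc)
  obtain ⟨k', hk'⟩ := key Z htZ (by
    by_contra hc
    push Not at hc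
    apply hnZ' u hu hu0 huq
    rw [← hZperp]; exact hc)
  have hbq : Q b = 0 := by
    have h1 : polar Q (b + k' • u) (b + k • u) = 0 := by
      rw [← hZperp] at hk
      exact hk _ hk'
    rw [pal, par, par, psl, psr, psl, psr, pself, pself, huq, hub, pc Q b u, hub] at h1
    have h3 : 2 * Q b = 0 := by linear_combination h1
    exact (mul_eq_zero.1 h3).resolve_left h2
  refine hnZ' (b + k • u) (U.add_mem hbU (U.smul_mem _ hu)) ?_ ?_ hk
  · intro h0
    apply hbs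
    rw [Submodule.mem_span_singleton]
    exact ⟨-k, by rw [neg_smul]; exact (eq_neg_of_add_eq_zero_left h0).symm⟩
  · rw [qadd, qsmul, hbq, huq, psr, pc Q b u, hub]; ring

end Cfsg.Agent.H30.OS7
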