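import Cfsg.Agent.H30.OS7
import Cfsg.Agent.GeoMax.OTransport
import Cfsg.Agent.Orth.Bridge

/-!
Stabilisers of even-dimensional non-degenerate subspaces in `Ω_{2m+1}(q)`, `q` odd, `m ≥ 3`, in the vocabulary of
`Cfsg.Geo` (clause (2) of the tables for `Ω_7`, `Ω_9`, `Ω_11`).
-/

set_option autoImplicit false
set_option linter.unusedSectionVars false

namespace Cfsg.Agent.H30.OS7

open QuadraticMap Module Cfsg.Agent.Orth Cfsg.Agent.GeoMax.Ort Cfsg.Agent.GeoMax Cfsg.Agent.H94.SmallOrt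
open Cfsg.Agent.H94.ND8

variable {F : Type*} [Field F] [Fintype F]

theorem no_swap {V : Type*} [AddCommGroup V] [Module F V] [FiniteDimensional F V] {Q : QuadraticForm F V}
    {U : Submodule F V} (h : finrank F (perp Q U) < finrank F U) :
    ∀ g ∈ commutator (OGrp Q), ¬ U.map ((g : V ≃ₗ[F] V) : V →ₗ[F] V) ≤ perp Q U := by
  intro g _ hle
  have h1 := Submodule.finrank_mono hle
  rw [LinearEquiv.finrank_map_eq] at h1
  omega

theorem nd_odd_aux {V : Type*} [AddCommGroup V] [Module F V] [FiniteDimensional F V] {Q : QuadraticForm F V}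
    (hQ : (polarBilin Q).Nondegenerate) (h2 : (2 : F) ≠ 0) (hn : 7 ≤ finrank F V) {W : Submodule F V}
    (hno : Odd (finrank F V)) (hW0 : W ≠ ⊥) (hW1 : W ≠ ⊤) (hev : Even (finrank F W)) (hW : W ⊓ perp Q W = ⊥)
    (hex : finrank F W = 2 → (∃ s ∈ W, s ≠ 0 ∧ Q s = 0) → 4 ≤ Nat.card F) :
    Cfsg.Geo.IsMaximalIn (commutator (OGrp Q)) (stabO Q W ⊓ commutator (OGrp Q)) := by
  have hd := finrank_perp hQ W
  have hWp0 : perp Q W ≠ ⊥ := by
    intro h
    rw [h, finrank_bot, zero_add] at hd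
    exact hW1 (Submodule.eq_top_of_finrank_eq hd)
  obtain ⟨k, hk⟩ := hno
  obtain ⟨l, hl⟩ := hev
  rcases Nat.lt_or_ge (finrank F W) (finrank F (perp Q W)) with h | h
  · -- `U = perp W`
    have hU := perp_nd hQ hW
    have hpp : perp Q (perp Q W) = W := perp_perp hQ W
    rw [← stabO_perp hQ]
    have hsw : ∀ g ∈ commutator (OGrp Q), ¬ (perp Q W).map ((g : V ≃ₗ[F] V) : V →ₗ[F] V) ≤ perp Q (perp Q W) :=
      no_swap (by rw [hpp]; exact h)
    have hex' : finrank F (perp Q (perp Q W)) = 2 → (∃ s ∈ perp Q (perp Q W), s ≠ 0 ∧ Q s = 0) → 4 ≤ Nat.card F := by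
      rw [hpp]; exact hex
    rcases Nat.lt_or_ge (finrank F (perp Q W)) 6 with h6 | h6
    · exact nd_maximal5 hQ h2 hU (by omega) hn (by rw [hpp]; exact hW0) hsw hex'
    · exact nd_maximal6 hQ hU h6 (by rw [hpp]; exact hW0) hsw hex'
  · have hsw := no_swap (Q := Q) (U := W) (by omega)
    rcases Nat.lt_or_ge (finrank F W) 6 with h6 | h6
    · exact nd_maximal43 hQ h2 hW (by omega) (by omega)
    · exact nd_maximal6 hQ hW h6 hWp0 hsw (fun h => absurd h (by omega))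

/-- clause (2) of the tables for `Ω_7`, `Ω_9`, `Ω_11` -/
theorem nd_odd_geo (hodd : Odd (Fintype.card F)) {m : ℕ} (hm : 3 ≤ m)
    (W : Submodule F (Unit ⊕ (Fin m ⊕ Fin m) → F)) (hW0 : W ≠ ⊥) (hev : Even (Module.finrank F W))
    (hW : Cfsg.Geo.IsNondegenerateOn (QuadraticMap.polar (Cfsg.quadFormOdd m F)) W)
    (hex : ¬ (Fintype.card F = 3 ∧ Module.finrank F W = 2 ∧ Cfsg.Geo.IsPlusTypeOn (Cfsg.quadFormOdd m F) W)) :
    Cfsg.Geo.IsMaximalIn (Cfsg.Geo.omegaGL (Cfsg.quadFormOdd m F))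
      (Cfsg.Geo.subspaceStabilizer W ⊓ Cfsg.Geo.omegaGL (Cfsg.quadFormOdd m F)) := by
  have h2 : (2 : F) ≠ 0 := Cfsg.Agent.GeoMax.Ort.two_ne_zero_of_odd hodd
  have hfr : finrank F (Unit ⊕ (Fin m ⊕ Fin m) → F) = 2 * m + 1 := by
    rw [Module.finrank_fintype_fun_eq_card]
    simp only [Fintype.card_sum, Fintype.card_unit, Fintype.card_fin]
    omega
  refine isMaximalIn_omegaGL (qfOdd m F) (mem_stabO_iff_emGL _ _) ?_
  refine nd_odd_aux (qfOdd_nondegenerate m F h2) h2 (by omega) (by rw [hfr]; exact ⟨m, rfl⟩) hW0 ?_ hev ?_ ?_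
  · rintro rfl
    rw [finrank_top, hfr] at hev
    exact (Nat.not_even_iff_odd.2 ⟨m, rfl⟩) hev
  · exact inf_perp_of_geo (Q := qfOdd m F) hW
  · rintro hf ⟨s, hs, hs0, hq⟩
    by_contra hcon
    apply hex
    rw [Nat.card_eq_fintype_card] at hcon
    have h3 : 1 < Fintype.card F := Fintype.one_lt_card
    obtain ⟨c, hc⟩ := hodd
    refine ⟨by omega, hf, Submodule.span F {s}, ?_, ?_, ?_⟩
    · rw [Submodule.span_singleton_le_iff_mem]; exact hs
    · intro w hw
      obtain ⟨c, rfl⟩ := Submodule.mem_span_singleton.1 hw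
      change (qfOdd m F) (c • s) = 0
      rw [qsmul]
      change c * c * Cfsg.quadFormOdd m F s = 0
      rw [show Cfsg.quadFormOdd m F s = 0 from hq, mul_zero]
    · rw [finrank_span_singleton hs0, hf]

end Cfsg.Agent.H30.OS7
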