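
import Cfsg.Agent.H98.SFE
import Cfsg.Agent.H30.OS7b
import Cfsg.Agent.GeoMax.OPar

/-!
# Clauses of the tables for `Ω_{2m+1}(q)`, `q` odd, `m ≥ 3`
-/

set_option autoImplicit false
set_option linter.unusedSectionVars false
set_option linter.unusedVariables false

namespace Cfsg.Agent.H30.Odd

open QuadraticMap Module Cfsg.Agent.Orth Cfsg.Agent.GeoMax.Ort

variable {F : Type*} [Field F] [Fintype F]

theorem card_idx (m : ℕ) : Fintype.card (Unit ⊕ (Fin m ⊕ Fin m)) = 2 * m + 1 := by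
  simp only [Fintype.card_sum, Fintype.card_unit, Fintype.card_fin]
  omega

/-- totally singular subspaces -/
theorem ts_geo (hodd : Odd (Fintype.card F)) {m : ℕ} (hm : 3 ≤ m)
    (W : Submodule F (Unit ⊕ (Fin m ⊕ Fin m) → F)) (hW0 : W ≠ ⊥)
    (hW : Cfsg.Geo.IsTotallySingularQuad (Cfsg.quadFormOdd m F) W) :
    Cfsg.Geo.IsMaximalIn (Cfsg.Geo.omegaGL (Cfsg.quadFormOdd m F))
      (Cfsg.Geo.subspaceStabilizer W ⊓ Cfsg.Geo.omegaGL (Cfsg.quadFormOdd m F)) := by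
  have h2 : (2 : F) ≠ 0 := Cfsg.Agent.GeoMax.Ort.two_ne_zero_of_odd hodd
  have hfr : finrank F (Unit ⊕ (Fin m ⊕ Fin m) → F) = 2 * m + 1 := by
    rw [Module.finrank_fintype_fun_eq_card, card_idx]
  refine isMaximalIn_omegaGL (qfOdd m F) (mem_stabO_iff_emGL _ _) ?_
  exact parabolic_maximal (qfOdd_nondegenerate m F h2) (by omega) W hW0 hW (fun h => by omega)

/-- subfield subgroups -/
theorem sub_geo (hodd : Odd (Fintype.card F)) {m : ℕ} (hm : 3 ≤ m) (F₀ : Subfield F) (r : ℕ)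
    (P : Matrix.GeneralLinearGroup (Unit ⊕ (Fin m ⊕ Fin m)) F) (hr : r.Prime)
    (hcard : Fintype.card F = Nat.card F₀ ^ r)
    (hP : Cfsg.Geo.IsQuadFormRationalStructure (Cfsg.quadFormOdd m F) F₀ P) :
    Cfsg.Geo.IsMaximalIn (Cfsg.Geo.omegaGL (Cfsg.quadFormOdd m F))
      (Cfsg.Geo.subfieldSubgroup F₀ P ⊓ Cfsg.Geo.omegaGL (Cfsg.quadFormOdd m F)) := by
  classical
  have h2 : (2 : F) ≠ 0 := Cfsg.Agent.GeoMax.Ort.two_ne_zero_of_odd hodd
  exact Cfsg.Agent.H98.SF.sub_isMaximalIn (qfOdd m F) (qfOdd_nondegenerate m F h2)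
    (by rw [card_idx]; omega) F₀ r hr hcard P (fun u => hP _ fun i => (u i).2)

end Cfsg.Agent.H30.Odd
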